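import Mathlib
import Cfsg.Agent.Spor.F23.O8c
import Cfsg.Agent.Spor.FL2.Cls2
import Cfsg.Agent.Spor.FiThree

/-! Generated by tools/fl: the classes of subgroups of order 3 of O8+(3) and their fusion under triality -/

set_option autoImplicit false
set_option maxRecDepth 100000
set_option linter.unusedVariables false
set_option exponentiation.threshold 100000

namespace Cfsg.Agent.Spor.F23

open Cfsg.Agent.Spor Cfsg.Agent.Spor.FL

noncomputable def o8_V_t : BT :=
(.node (.node (.node (.node (.leaf (nat_lit 0x1b0000))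
 (.leaf (nat_lit 135)))
 (.node (.leaf (nat_lit 0x6c0000))
 (.leaf (nat_lit 0x6c6c6c))))
 (.node (.node (.leaf (nat_lit 27))
 (.leaf (nat_lit 0x121212)))
 (.leaf (nat_lit 0x870000))))
 (.node (.node (.node (.leaf (nat_lit 6912))
 (.leaf (nat_lit 592137)))
 (.leaf (nat_lit 27648)))
 (.node (.node (.leaf (nat_lit 108))
 (.leaf (nat_lit 0x1b1b1b)))
 (.leaf (nat_lit 34560)))))

noncomputable def o8_V : ℕ → ℕ → ℕ := fun x i => Nat.land (Nat.shiftRight (BT.get o8_V_t x) (Nat.mul (nat_lit 8) i)) (nat_lit 255)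

noncomputable def o8_W7 : ℕ → ℕ := fun i => Nat.land (Nat.shiftRight (nat_lit 0x1024f6b646306c5a) (Nat.mul (nat_lit 10) i)) (nat_lit 1023)

noncomputable def o8_V7 : ℕ → ℕ := fun i => Nat.land (Nat.shiftRight (nat_lit 0x510a2360da1cd81b) (Nat.mul (nat_lit 9) i)) (nat_lit 511)

noncomputable def o8_F : LT :=
(.node (.node (.node (.node (.leaf [nat_lit 0])
 (.leaf [nat_lit 2,nat_lit 16,nat_lit 16]))
 (.node (.leaf [nat_lit 1,nat_lit 16])
 (.leaf [nat_lit 6])))
 (.node (.node (.leaf [nat_lit 0,nat_lit 16,nat_lit 16])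
 (.leaf [nat_lit 4]))
 (.leaf [nat_lit 2])))
 (.node (.node (.node (.leaf [nat_lit 0,nat_lit 16])
 (.leaf [nat_lit 3]))
 (.leaf [nat_lit 1,nat_lit 16,nat_lit 16]))
 (.node (.node (.leaf [nat_lit 1])
 (.leaf [nat_lit 5]))
 (.leaf [nat_lit 2,nat_lit 16]))))

theorem o8_n_0 : allRange (nat_lit 0) (nat_lit 2) (fun t => force (o8_c_W t) fun d => allLt 3 fun c => Nat.beq (count2 3240 fun i => band (Nat.beq (o8_C i) c) (force (pcT o8_T 3 12 0 d i) (Nat.beq i))) (o8_V t c)) = true := by decide +kernel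

theorem o8_n_1 : allRange (nat_lit 2) (nat_lit 2) (fun t => force (o8_c_W t) fun d => allLt 3 fun c => Nat.beq (count2 3240 fun i => band (Nat.beq (o8_C i) c) (force (pcT o8_T 3 12 0 d i) (Nat.beq i))) (o8_V t c)) = true := by decide +kernel

theorem o8_n_2 : allRange (nat_lit 4) (nat_lit 2) (fun t => force (o8_c_W t) fun d => allLt 3 fun c => Nat.beq (count2 3240 fun i => band (Nat.beq (o8_C i) c) (force (pcT o8_T 3 12 0 d i) (Nat.beq i))) (o8_V t c)) = true := by decide +kernel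

theorem o8_n_3 : allRange (nat_lit 6) (nat_lit 2) (fun t => force (o8_c_W t) fun d => allLt 3 fun c => Nat.beq (count2 3240 fun i => band (Nat.beq (o8_C i) c) (force (pcT o8_T 3 12 0 d i) (Nat.beq i))) (o8_V t c)) = true := by decide +kernel

theorem o8_n_4 : allRange (nat_lit 8) (nat_lit 2) (fun t => force (o8_c_W t) fun d => allLt 3 fun c => Nat.beq (count2 3240 fun i => band (Nat.beq (o8_C i) c) (force (pcT o8_T 3 12 0 d i) (Nat.beq i))) (o8_V t c)) = true := by decide +kernel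

theorem o8_n_5 : allRange (nat_lit 10) (nat_lit 2) (fun t => force (o8_c_W t) fun d => allLt 3 fun c => Nat.beq (count2 3240 fun i => band (Nat.beq (o8_C i) c) (force (pcT o8_T 3 12 0 d i) (Nat.beq i))) (o8_V t c)) = true := by decide +kernel

theorem o8_n_6 : allRange (nat_lit 12) (nat_lit 1) (fun t => force (o8_c_W t) fun d => allLt 3 fun c => Nat.beq (count2 3240 fun i => band (Nat.beq (o8_C i) c) (force (pcT o8_T 3 12 0 d i) (Nat.beq i))) (o8_V t c)) = true := by decide +kernel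

theorem o8_n : ∀ i < 13, (fun t => force (o8_c_W t) fun d => allLt 3 fun c => Nat.beq (count2 3240 fun i => band (Nat.beq (o8_C i) c) (force (pcT o8_T 3 12 0 d i) (Nat.beq i))) (o8_V t c)) i = true := range_append 1 (range_append 2 (range_append 2 (range_append 2 (range_append 2 (range_append 2 (allRange_zero o8_n_0) o8_n_1 (b := 4)) o8_n_2 (b := 6)) o8_n_3 (b := 8)) o8_n_4 (b := 10)) o8_n_5 (b := 12)) o8_n_6 (b := 13)

theorem o8_n7_0 : allRange (nat_lit 0) (nat_lit 2) (fun t => force (o8_W7 t) fun d => Nat.beq (count2 3240 fun i => band true (force (pcT o8_T 3 12 0 d i) (Nat.beq i))) (o8_V7 t)) = true := by decide +kernel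

theorem o8_n7_1 : allRange (nat_lit 2) (nat_lit 2) (fun t => force (o8_W7 t) fun d => Nat.beq (count2 3240 fun i => band true (force (pcT o8_T 3 12 0 d i) (Nat.beq i))) (o8_V7 t)) = true := by decide +kernel

theorem o8_n7_2 : allRange (nat_lit 4) (nat_lit 2) (fun t => force (o8_W7 t) fun d => Nat.beq (count2 3240 fun i => band true (force (pcT o8_T 3 12 0 d i) (Nat.beq i))) (o8_V7 t)) = true := by decide +kernel

theorem o8_n7_3 : allRange (nat_lit 6) (nat_lit 1) (fun t => force (o8_W7 t) fun d => Nat.beq (count2 3240 fun i => band true (force (pcT o8_T 3 12 0 d i) (Nat.beq i))) (o8_V7 t)) = true := by decide +kernel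

theorem o8_n7 : ∀ i < 7, (fun t => force (o8_W7 t) fun d => Nat.beq (count2 3240 fun i => band true (force (pcT o8_T 3 12 0 d i) (Nat.beq i))) (o8_V7 t)) i = true := range_append 1 (range_append 2 (range_append 2 (allRange_zero o8_n7_0) o8_n7_1 (b := 4)) o8_n7_2 (b := 6)) o8_n7_3 (b := 7)

theorem o8_fus : ∀ i < 13, (leafIn (wT X o8_g) B 3 12 17 7 o8_W7 o8_c_W o8_F) i = true := allRange_zero (len := (nat_lit 13)) (by decide +kernel)

theorem o8_low {G : Type*} [Group G] (M : Mod G) : genLt (M.wl o8_g) 16 ≤ genLt (M.wl o8_t) 10 := (genLt_mono _ (by decide)).trans (o8_in M)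

theorem o8_tri {G : Type*} [Group G] (M : Mod G) (hM : Good M) [(generalizedFittingSubgroup (genLt (M.wl o8_t) 10)).Normal] :
    Nonempty (genLt (M.wl o8_t) 10 ⧸ generalizedFittingSubgroup (genLt (M.wl o8_t) 10) ≃* Equiv.Perm (Fin 3)) ∧
      Nonempty (generalizedFittingSubgroup (genLt (M.wl o8_t) 10) ≃* POmega (ZMod 3) (quadFormPlus 4 (ZMod 3))) :=
  have := M.fin
  M.tri_pack (τ := o8_tau) (j := 1270) hM.three (o8_t_tabs M).1 (o8_t_tabs M).2
    (inc_spec fun i hi => ((band_iff _ _).1 (o8_t_res i hi)).1).1 (fun s hs => by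
      have h := (band_iff _ _).1 ((allLt_iff _ _).1 (by decide +kernel : allLt 10 (fun s => band (blt (o8_tau s) 3240)
        (beqL (o8_t.get s) [o8_P (o8_tau s)])) = true) s hs)
      exact ⟨(blt_iff _ _).1 h.1, by rw [TM.wl_def, eq_of_beqL h.2]; exact mul_one _⟩) (by decide)
    (fun i hi => by
      obtain ⟨r, hr, h⟩ := o8_cov M hi
      rwa [List.mem_singleton.1 hr, show nat_lit 0 = o8_tau 0 by decide +kernel] at h)
    (o8_Z M) (by decide +kernel) o8_v o8_b (by decide) (by decide +kernel)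
    ((by decide : 1045094400 < 4952179814400).trans_le
      (le_card_of_chain (o8_ch M) ((words_le_genLt o8_ch_hl _).trans (o8_low M))))

theorem o8_L {G : Type*} [Group G] (M : Mod G) (hM : Good M) :
    (generalizedFittingSubgroup (genLt (M.wl o8_t) 10)).map (genLt (M.wl o8_t) 10).subtype = genLt (M.wl o8_g) 16 ∧
      Nat.card (genLt (M.wl o8_g) 16) = 4952179814400 ∧ LM (fun i => pts M.x (o8_P i)) 3240 o8_T (M.wl o8_g) 16 [nat_lit 0,nat_lit 3,nat_lit 1,nat_lit 2,nat_lit 4,nat_lit 5,nat_lit 6] := by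
  have := M.fin
  have := GT.genFitting_normal (G := genLt (M.wl o8_t) 10)
  obtain ⟨⟨e1⟩, ⟨e2⟩⟩ := o8_tri M hM
  have h1 := (M.lm o8_hg 16).le_of_coprime (o8_low M) ((Nat.card_congr e1.toEquiv).trans
    (by rw [Nat.card_perm, Nat.card_fin]; rfl)) o8_cop
  have h2 := (Subgroup.card_map_of_injective (genLt (M.wl o8_t) 10).subtype_injective).trans
    ((Nat.card_congr e2.toEquiv).trans TT.card_O8p3)
  have h3 := eq_of_le_of_card h1 (h2.le.trans (le_card_of_chain (o8_ch M) (words_le_genLt o8_ch_hl _)))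
  rw [← h3] at h2
  exact ⟨h3.symm, h2, (o8_tabs M).2, (o8_tabs M).1,
    (card_base_of_chain (o8_ch M) (words_le_genLt o8_ch_hl _) h2.le).2, by decide +kernel⟩

theorem o8_J {G : Type*} [Group G] (M : Mod G) {t c : ℕ} (ht : t < 13) (hc : c < 3) :
    relC Eq ((fun i => pts M.x (o8_P i)) '' {i | i < 3240 ∧ Nat.beq (o8_C i) c = true}) (pcG (M.wl o8_g) 3 12 0 (o8_c_W t)) = o8_V t c := by
  have h := o8_n t ht
  simp only [force_eq, allLt_iff, nbeq_iff] at h
  rw [relC_eq (o8_tabs M).2 (tab_pcT (o8_tabs M).1 12 0 _ (by decide)) (beq_iff_of_inj (o8_tabs M).2), ← h c hc]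
  simp only [force_eq]

theorem o8_J7 {G : Type*} [Group G] (M : Mod G) {t : ℕ} (ht : t < 7) :
    relC Eq ((fun i => pts M.x (o8_P i)) '' {i | i < 3240 ∧ true = true}) (pcG (M.wl o8_g) 3 12 0 (o8_W7 t)) = o8_V7 t := by
  have h := o8_n7 t ht
  simp only [force_eq, nbeq_iff] at h
  rw [relC_eq (o8_tabs M).2 (tab_pcT (o8_tabs M).1 12 0 _ (by decide)) (beq_iff_of_inj (o8_tabs M).2) (fun _ => true), ← h]
  simp only [force_eq]

theorem o8_13 {G : Type*} [Group G] (M : Mod G) (hM : Good M) {H : Type*} [Group H] (ε : H ≃* genLt (M.wl o8_g) 16) :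
    ∃ Y : Fin 13 → Subgroup H, (∀ i, Y i ≤ ⊤ ∧ Nat.card (Y i) = 3) ∧
      (∀ i j, (∃ g : H, (Y i).map (MulAut.conj g).toMonoidHom = Y j) → i = j) ∧
      ∀ X : Subgroup H, X ≤ ⊤ → Nat.card X = 3 → ∃ i, ∃ g : H, X.map (MulAut.conj g).toMonoidHom = Y i := by
  have := M.fin
  obtain ⟨-, h2, h3⟩ := o8_L M hM
  have h5 := genLt_mono (M.wl o8_g) (show 12 ≤ 16 by decide)
  exact classes_rel (Subtype.val_injective.comp ε.injective) ((MonoidHom.range_eq_map _).symm.trans (range_subtype_comp ε))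
    (range_subtype_comp ε) h5 h2 (o8_p_cb M).1 (by decide) (fun t ht => ⟨(o8_c_ord M t ht).1, h5 (o8_c_ord M t ht).2⟩)
    (o8_c M h3) (fun a c => relC Eq ((fun i => pts M.x (o8_P i)) '' {i | i < 3240 ∧ Nat.beq (o8_C i) c = true}) a)
    (fun u hu a _ => funext fun c => relC_conj (fun _ _ _ => smul_left_cancel_iff _) (col_inv (o8_tabs M).1 o8_col c) hu a)
    (fun a => funext fun c => relC_inv (fun _ _ _ => smul_left_cancel_iff _) (fun _ _ => Eq.symm) a) fun s hs t ht h =>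
      (by decide +kernel : ∀ s < 13, ∀ t < 13, (∀ c < 3, o8_V s c = o8_V t c) → s = t) s hs t ht fun c hc => by
        rw [← o8_J M hs hc, ← o8_J M ht hc]; exact congrFun h c

theorem o8_7 {G : Type*} [Group G] (M : Mod G) (hM : Good M) {H : Type*} [Group H] (ε : H ≃* genLt (M.wl o8_t) 10) :
    ∃ Y : Fin 7 → Subgroup H, (∀ i, Y i ≤ generalizedFittingSubgroup H ∧ Nat.card (Y i) = 3) ∧
      (∀ i j, (∃ g : H, (Y i).map (MulAut.conj g).toMonoidHom = Y j) → i = j) ∧
      ∀ X : Subgroup H, X ≤ generalizedFittingSubgroup H → Nat.card X = 3 →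
        ∃ i, ∃ g : H, X.map (MulAut.conj g).toMonoidHom = Y i := by
  have := M.fin
  obtain ⟨h1, h2, h3⟩ := o8_L M hM
  have h5 := genLt_mono (M.wl o8_g) (show 12 ≤ 16 by decide)
  refine classes_rel (w := fun t => (pcG (M.wl o8_g) 3 12 0 (o8_W7 t))) (Subtype.val_injective.comp ε.injective)
    ((Subgroup.map_map _ _ _).symm.trans ((congrArg _ (GT.map_genFitting_equiv ε)).trans h1))
    (range_subtype_comp ε) h5 h2 (o8_p_cb M).1 (by decide) (fun t ht => ?_)
    (fun a ha h => ((o8_c M h3 a ha h).trans (genLt_mono _ (by decide)) fun t ht =>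
      (M.lm o8_hg 17).leaf (by decide) (o8_fus t ht)).trans (o8_in M) fun t ht => Or.inr ⟨t, ht, 1, one_mem _, by simp⟩)
    (fun a => (relC Eq ((fun i => pts M.x (o8_P i)) '' {i | i < 3240 ∧ true = true}) a, OneCol (fun i => pts M.x (o8_P i)) 3240 o8_C a))
    (fun u hu a _ => Prod.ext (relC_conj (fun _ _ _ => smul_left_cancel_iff _)
      ((inv_true _ _ _).image fun _ hc _ => (o8_t_tabs M).1.smul_mem hc) hu a)
      (oneCol_conj (o8_t_tabs M).1 (o8_t_tabs M).2 o8_b hu a))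
    (fun a => Prod.ext (relC_inv (fun _ _ _ => smul_left_cancel_iff _) (fun _ _ => Eq.symm) a) (oneCol_inv _ a))
    fun s hs t ht h => ?_
  · have k := (o8_p_lm M).ord_code (o8_p_pc M) (o8_p_cb M).1.ge ((allLt_iff _ _).1 (by decide +kernel :
      allLt 7 (fun t => force (o8_W7 t) (ordOK o8_T [nat_lit 3,nat_lit 0,nat_lit 1,nat_lit 2,nat_lit 4] 3 12)) = true) t ht)
    exact ⟨k.1, h5 k.2⟩
  have k1 := (o8_J7 M hs).symm.trans ((congrArg Prod.fst h).trans (o8_J7 M ht))
  have k2 := congrArg Prod.snd h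
  have k3 := oneCol_of (C := o8_C) (c := 2) (o8_tabs M).2 (tab_pcT (p := 3) (o8_tabs M).1 12 0 (o8_W7 0) (by decide))
    (by decide +kernel)
  have k4 := not_oneCol (C := o8_C) (i := 0) (j := 1104) (tab_pcT (p := 3) (o8_tabs M).1 12 0 (o8_W7 3) (by decide))
    (by decide +kernel)
  rcases (by decide +kernel : ∀ s < 7, ∀ t < 7, o8_V7 s = o8_V7 t → s = t ∨ s = 0 ∧ t = 3 ∨ s = 3 ∧ t = 0) s hs t ht k1 with
    h | ⟨rfl, rfl⟩ | ⟨rfl, rfl⟩
  exacts [h, absurd (k2.mp k3) k4, absurd (k2.mpr k3) k4]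

end Cfsg.Agent.Spor.F23
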